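import Cfsg.Agent.Lib.Helper54.UT.Defs

set_option autoImplicit false

namespace Cfsg.Agent.Lib.Helper54.UT

open Cfsg Cfsg.Geo Cfsg.Agent.Lib.Helper77.Asch Cfsg.Agent.Lib.Helper77.AschG Cfsg.Agent.Lib.Helper5.AschC
open scoped MatrixGroups Matrix

variable {n : ℕ} {F : Type*} [Field F]

/-- PTM. -/
theorem pt_map_pow {a k : ℕ} (q : ℕ) (y : Fin k → Matrix (Fin a) (Fin a) F) :
    (pt y).map (· ^ q) = pt (fun i => (y i).map (· ^ q)) := by
  ext u v
  simp only [Matrix.map_apply, pt]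
  rw [Finset.prod_pow]

/-- PTM. -/
theorem pt_const_smul {a k : ℕ} (c : F) (A : Matrix (Fin a) (Fin a) F) :
    pt (fun _ : Fin k => c • A) = c ^ k • pt (fun _ : Fin k => A) := by
  ext u v
  simp only [Matrix.smul_apply, pt, smul_eq_mul]
  rw [Finset.prod_mul_distrib, Finset.prod_const, Finset.card_univ, Fintype.card_fin]

end Cfsg.Agent.Lib.Helper54.UT
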