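import Cfsg.Agent.Lib.Helper54.UT.Defs

set_option autoImplicit false

namespace Cfsg.Agent.Lib.Helper54.UT

open Cfsg Cfsg.Geo Cfsg.Agent.Lib.Helper77.Asch Cfsg.Agent.Lib.Helper77.AschG Cfsg.Agent.Lib.Helper5.AschC
open scoped MatrixGroups Matrix

variable {n : ℕ} {F : Type*} [Field F]

/-- CJ. -/
theorem adj_conj (q : ℕ) (g : GL (Fin n) F) (hg : g ∈ similarityGroup (hermForm n F q))
    (X X' : Matrix (Fin n) (Fin n) F) (h : ∀ u v, hermForm n F q (X *ᵥ u) v = hermForm n F q u (X' *ᵥ v)) :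
    ∀ u v, hermForm n F q (conjA g X *ᵥ u) v = hermForm n F q u (conjA g X' *ᵥ v) := by
  intro u v
  obtain ⟨c, hc⟩ := hg
  have hgg : (g : Matrix (Fin n) (Fin n) F) * ((g⁻¹ : GL (Fin n) F) : Matrix (Fin n) (Fin n) F) = 1 := by
    rw [← Units.val_mul, mul_inv_cancel, Units.val_one]
  have e1 : conjA g X *ᵥ u = (g : Matrix (Fin n) (Fin n) F) *ᵥ
      (X *ᵥ (((g⁻¹ : GL (Fin n) F) : Matrix (Fin n) (Fin n) F) *ᵥ u)) := by
    change ((g : Matrix (Fin n) (Fin n) F) * X * ((g⁻¹ : GL (Fin n) F) : Matrix (Fin n) (Fin n) F)) *ᵥ u = _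
    rw [Matrix.mulVec_mulVec, Matrix.mulVec_mulVec, mul_assoc]
  have e2 : conjA g X' *ᵥ v = (g : Matrix (Fin n) (Fin n) F) *ᵥ
      (X' *ᵥ (((g⁻¹ : GL (Fin n) F) : Matrix (Fin n) (Fin n) F) *ᵥ v)) := by
    change ((g : Matrix (Fin n) (Fin n) F) * X' * ((g⁻¹ : GL (Fin n) F) : Matrix (Fin n) (Fin n) F)) *ᵥ v = _
    rw [Matrix.mulVec_mulVec, Matrix.mulVec_mulVec, mul_assoc]
  have e3 : ∀ w : Fin n → F, w = (g : Matrix (Fin n) (Fin n) F) *ᵥ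
      (((g⁻¹ : GL (Fin n) F) : Matrix (Fin n) (Fin n) F) *ᵥ w) := by
    intro w
    rw [Matrix.mulVec_mulVec, hgg, Matrix.one_mulVec]
  rw [e1, e2]
  conv_lhs => rw [e3 v]
  conv_rhs => rw [e3 u]
  rw [hc, hc, h]

end Cfsg.Agent.Lib.Helper54.UT
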