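import Cfsg.Agent.Lib.Helper77.AschG.DefsB
import Cfsg.Agent.Lib.Helper32.AschU.Defs

/-! Ladder UT: the unitary form on a tensor power decomposition (general C7 block, unitary case): definitions. -/

set_option autoImplicit false

namespace Cfsg.Agent.Lib.Helper54.UT

open Cfsg Cfsg.Geo Cfsg.Agent.Lib.Helper77.Asch Cfsg.Agent.Lib.Helper77.AschG Cfsg.Agent.Lib.Helper5.AschC
open scoped MatrixGroups Matrix

variable {n : ℕ} {F : Type*} [Field F]

/-- the Gram matrix of `hermForm n F q` in the basis `P e_(e.symm u)`, indexed by `Fin k → Fin a`. -/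
def gramI (q : ℕ) {a k : ℕ} (e : Fin n ≃ (Fin k → Fin a)) (P : GL (Fin n) F) :
    Matrix (Fin k → Fin a) (Fin k → Fin a) F :=
  (Cfsg.Agent.Lib.Helper32.AschU.gram q P).submatrix e.symm e.symm

end Cfsg.Agent.Lib.Helper54.UT
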