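import Cfsg.Agent.Lib.Helper54.UT.Defs
import Cfsg.Agent.Lib.Helper32.AschU.GRAM

set_option autoImplicit false

namespace Cfsg.Agent.Lib.Helper54.UT

open Cfsg Cfsg.Geo Cfsg.Agent.Lib.Helper77.Asch Cfsg.Agent.Lib.Helper77.AschG Cfsg.Agent.Lib.Helper5.AschC
open scoped MatrixGroups Matrix

variable {n : ℕ} {F : Type*} [Field F]

/-- GI. -/
theorem gramI_apply [Fintype F] (q : ℕ) (hF : Fintype.card F = q ^ 2) {a k : ℕ} (e : Fin n ≃ (Fin k → Fin a))
    (P : GL (Fin n) F) (x y : (Fin k → Fin a) → F) :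
    hermForm n F q ((P : Matrix (Fin n) (Fin n) F) *ᵥ (x ∘ e)) ((P : Matrix (Fin n) (Fin n) F) *ᵥ (y ∘ e)) =
      ∑ u, ∑ v, x u * gramI q e P u v * (y v) ^ q := by
  rw [Cfsg.Agent.Lib.Helper32.AschU.gram_apply q hF]
  unfold gramI
  simp only [dotProduct, Matrix.mulVec, Function.comp, Matrix.submatrix_apply]
  rw [← Equiv.sum_comp e]
  refine Finset.sum_congr rfl fun i _ => ?_
  rw [Finset.mul_sum, ← Equiv.sum_comp e]
  refine Finset.sum_congr rfl fun j _ => ?_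
  simp [mul_assoc]

/-- GI. -/
theorem gramI_herm [Fintype F] (q : ℕ) (hF : Fintype.card F = q ^ 2) {a k : ℕ} (e : Fin n ≃ (Fin k → Fin a))
    (P : GL (Fin n) F) : (gramI q e P)ᵀ = (gramI q e P).map (· ^ q) := by
  have h := Cfsg.Agent.Lib.Helper32.AschU.gram_herm q hF P
  ext u v
  have h1 := congrFun (congrFun h (e.symm u)) (e.symm v)
  simpa [gramI] using h1

/-- GI. -/
theorem gramI_isUnit [Fintype F] (q : ℕ) (hF : Fintype.card F = q ^ 2) {a k : ℕ} (e : Fin n ≃ (Fin k → Fin a))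
    (P : GL (Fin n) F) : IsUnit (gramI q e P) := by
  have h := Cfsg.Agent.Lib.Helper32.AschU.gram_isUnit q hF P
  have h1 : gramI q e P = Matrix.reindexAlgEquiv F F e (Cfsg.Agent.Lib.Helper32.AschU.gram q P) := rfl
  rw [h1]
  exact h.map (Matrix.reindexAlgEquiv F F e)

end Cfsg.Agent.Lib.Helper54.UT
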