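import Cfsg.Agent.Lib.Helper54.UT.Defs
import Cfsg.Agent.Lib.Helper54.UT.GI

set_option autoImplicit false

namespace Cfsg.Agent.Lib.Helper54.UT

open Cfsg Cfsg.Geo Cfsg.Agent.Lib.Helper77.Asch Cfsg.Agent.Lib.Helper77.AschG Cfsg.Agent.Lib.Helper5.AschC
open scoped MatrixGroups Matrix

variable {n : ℕ} {F : Type*} [Field F]

/-- `tw e P M` acts on `P (x ∘ e)` as `M` acts on `x`. -/
theorem ga_tw_mulVec {a k : ℕ} (e : Fin n ≃ (Fin k → Fin a)) (P : GL (Fin n) F)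
    (M : Matrix (Fin k → Fin a) (Fin k → Fin a) F) (x : (Fin k → Fin a) → F) :
    tw e P M *ᵥ ((P : Matrix (Fin n) (Fin n) F) *ᵥ (x ∘ e)) =
      (P : Matrix (Fin n) (Fin n) F) *ᵥ ((M *ᵥ x) ∘ e) := by
  unfold tw
  rw [Matrix.mulVec_mulVec, mul_assoc, ← Units.val_mul, inv_mul_cancel, Units.val_one, mul_one,
    ← Matrix.mulVec_mulVec]
  congr 1
  funext i
  simp only [Matrix.mulVec, dotProduct, Function.comp, Matrix.reindex_apply, Matrix.submatrix_apply,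
    Equiv.symm_symm]
  exact Equiv.sum_comp e (fun v => M (e i) v * x v)

/-- GA. -/
theorem gramI_adj [Fintype F] (q : ℕ) (hF : Fintype.card F = q ^ 2) {a k : ℕ} (e : Fin n ≃ (Fin k → Fin a))
    (P : GL (Fin n) F) (M M' : Matrix (Fin k → Fin a) (Fin k → Fin a) F)
    (h : ∀ u v, hermForm n F q (tw e P M *ᵥ u) v = hermForm n F q u (tw e P M' *ᵥ v)) :
    Mᵀ * gramI q e P = gramI q e P * M'.map (· ^ q) := by
  classical
  have hq : q ≠ 0 := by
    rintro rfl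
    have : 1 < Fintype.card F := Fintype.one_lt_card
    rw [hF] at this
    simp at this
  ext u₀ v₀
  have h0 := h ((P : Matrix (Fin n) (Fin n) F) *ᵥ ((Pi.single u₀ 1 : (Fin k → Fin a) → F) ∘ e))
    ((P : Matrix (Fin n) (Fin n) F) *ᵥ ((Pi.single v₀ 1 : (Fin k → Fin a) → F) ∘ e))
  rw [ga_tw_mulVec, ga_tw_mulVec, gramI_apply q hF, gramI_apply q hF] at h0
  rw [Matrix.mul_apply, Matrix.mul_apply]
  have hL : ∑ u, ∑ v, (M *ᵥ (Pi.single u₀ 1 : (Fin k → Fin a) → F)) u * gramI q e P u v *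
      ((Pi.single v₀ 1 : (Fin k → Fin a) → F) v) ^ q = ∑ u, Mᵀ u₀ u * gramI q e P u v₀ := by
    refine Finset.sum_congr rfl fun u _ => ?_
    rw [Finset.sum_eq_single v₀]
    · simp [Matrix.mulVec_single_one]
    · intro b _ hb
      simp [Pi.single_eq_of_ne hb, hq]
    · simp
  have hR : ∑ u, ∑ v, (Pi.single u₀ 1 : (Fin k → Fin a) → F) u * gramI q e P u v *
      ((M' *ᵥ (Pi.single v₀ 1 : (Fin k → Fin a) → F)) v) ^ q =
      ∑ v, gramI q e P u₀ v * (M'.map (· ^ q)) v v₀ := by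
    rw [Finset.sum_eq_single u₀]
    · simp [Matrix.mulVec_single_one]
    · intro b _ hb
      simp [Pi.single_eq_of_ne hb]
    · simp
  rw [← hL, ← hR]
  exact h0

end Cfsg.Agent.Lib.Helper54.UT
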