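import Cfsg.Agent.Lib.Helper54.UT.Defs
import Cfsg.Agent.Lib.Helper77.AschG.PT

set_option autoImplicit false

namespace Cfsg.Agent.Lib.Helper54.UT

open Cfsg Cfsg.Geo Cfsg.Agent.Lib.Helper77.Asch Cfsg.Agent.Lib.Helper77.AschG Cfsg.Agent.Lib.Helper5.AschC
open scoped MatrixGroups Matrix

variable {n : ℕ} {F : Type*} [Field F]

theorem ptu_eval {a k : ℕ} (i₀ : Fin k) (X : Matrix (Fin a) (Fin a) F) (b₀ c₀ b c : Fin a) :
    pt (fun _ : Fin k => X) (Function.update (fun _ => b₀) i₀ b) (Function.update (fun _ => c₀) i₀ c)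
      = X b c * (X b₀ c₀) ^ (Finset.univ.erase i₀).card := by
  rw [pt_apply, ← Finset.mul_prod_erase Finset.univ _ (Finset.mem_univ i₀), Function.update_self,
    Function.update_self]
  congr 1
  rw [← Finset.prod_const]
  apply Finset.prod_congr rfl
  intro j hj
  rw [Function.update_of_ne (Finset.ne_of_mem_erase hj), Function.update_of_ne (Finset.ne_of_mem_erase hj)]

/-- PTU. -/
theorem pt_const_unique {a k : ℕ} (hk : 0 < k) (A B : Matrix (Fin a) (Fin a) F) (c : F) (hA : A ≠ 0)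
    (h : pt (fun _ : Fin k => A) = c • pt (fun _ : Fin k => B)) : ∃ μ : F, A = μ • B := by
  obtain ⟨b₀, c₀, h0⟩ : ∃ b₀ c₀, A b₀ c₀ ≠ 0 := by
    by_contra hcon
    push Not at hcon
    exact hA (by ext b c; exact hcon b c)
  obtain ⟨m, hm⟩ : ∃ m, m = (Finset.univ.erase (⟨0, hk⟩ : Fin k)).card := ⟨_, rfl⟩
  refine ⟨c * (B b₀ c₀) ^ m / (A b₀ c₀) ^ m, ?_⟩
  ext b c'
  have h1 := congrFun (congrFun h (Function.update (fun _ => b₀) ⟨0, hk⟩ b))
    (Function.update (fun _ => c₀) ⟨0, hk⟩ c')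
  rw [ptu_eval, Matrix.smul_apply, ptu_eval, smul_eq_mul, ← hm] at h1
  rw [Matrix.smul_apply, smul_eq_mul]
  have hα : (A b₀ c₀) ^ m ≠ 0 := pow_ne_zero _ h0
  field_simp
  linear_combination h1

end Cfsg.Agent.Lib.Helper54.UT
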