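import Cfsg.Agent.Lib.Helper54.UT.Defs
import Cfsg.Agent.Lib.Helper54.UT.PTU
import Cfsg.Agent.Lib.Helper54.UT.PTM
import Cfsg.Agent.Lib.Helper77.AschG.PT
import Cfsg.Agent.Lib.Helper47.UC.TG2

set_option autoImplicit false

namespace Cfsg.Agent.Lib.Helper54.UT

open Cfsg Cfsg.Geo Cfsg.Agent.Lib.Helper77.Asch Cfsg.Agent.Lib.Helper77.AschG Cfsg.Agent.Lib.Helper5.AschC
open scoped MatrixGroups Matrix

variable {n : ℕ} {F : Type*} [Field F]

/-- HS. -/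
theorem herm_scale_const [Fintype F] (q : ℕ) (hF : Fintype.card F = q ^ 2) {a k : ℕ} (hk : 0 < k) (ha : 0 < a)
    (y : GL (Fin a) F) (l : F) (hl : l ≠ 0)
    (hh : (l • pt (fun _ : Fin k => (y : Matrix (Fin a) (Fin a) F)))ᵀ =
      (l • pt (fun _ : Fin k => (y : Matrix (Fin a) (Fin a) F))).map (· ^ q)) :
    ∃ (J : Matrix (Fin a) (Fin a) F) (c : F), c ≠ 0 ∧ IsUnit J ∧ Jᵀ = J.map (· ^ q) ∧
      l • pt (fun _ : Fin k => (y : Matrix (Fin a) (Fin a) F)) = c • pt (fun _ : Fin k => J) := by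
  classical
  haveI : Nonempty (Fin a) := ⟨⟨0, ha⟩⟩
  have hy0 : (y : Matrix (Fin a) (Fin a) F) ≠ 0 := Units.ne_zero y
  have hmap : (l • pt (fun _ : Fin k => (y : Matrix (Fin a) (Fin a) F))).map (· ^ q)
      = l ^ q • pt (fun _ : Fin k => (y : Matrix (Fin a) (Fin a) F).map (· ^ q)) := by
    rw [← pt_map_pow]
    ext u v
    simp only [Matrix.map_apply, Matrix.smul_apply, smul_eq_mul, mul_pow]
  rw [hmap, Matrix.transpose_smul, pt_transpose] at hh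
  have h1 : pt (fun _ : Fin k => (y : Matrix (Fin a) (Fin a) F)ᵀ)
      = (l ^ q / l) • pt (fun _ : Fin k => (y : Matrix (Fin a) (Fin a) F).map (· ^ q)) := by
    have h2 := congrArg (fun M => l⁻¹ • M) hh
    simp only [smul_smul, inv_mul_cancel₀ hl, one_smul] at h2
    rw [h2, div_eq_inv_mul]
  have hyT : (y : Matrix (Fin a) (Fin a) F)ᵀ ≠ 0 := by
    intro h
    apply hy0
    rw [← Matrix.transpose_transpose (y : Matrix (Fin a) (Fin a) F), h, Matrix.transpose_zero]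
  obtain ⟨μ, hμ⟩ := pt_const_unique hk _ _ _ hyT h1
  have hent : ∀ b c, (y : Matrix (Fin a) (Fin a) F) c b = μ * ((y : Matrix (Fin a) (Fin a) F) b c) ^ q := by
    intro b c
    have := congrFun (congrFun hμ b) c
    simpa using this
  obtain ⟨b₀, c₀, h0⟩ : ∃ b₀ c₀, (y : Matrix (Fin a) (Fin a) F) b₀ c₀ ≠ 0 := by
    by_contra hcon
    push Not at hcon
    exact hy0 (by ext b c; exact hcon b c)
  have hμ1 : μ ^ q * μ = 1 := by
    have h3 : (y : Matrix (Fin a) (Fin a) F) b₀ c₀ = (μ ^ q * μ) * (y : Matrix (Fin a) (Fin a) F) b₀ c₀ := by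
      conv_lhs => rw [hent c₀ b₀, hent b₀ c₀, mul_pow, Cfsg.Agent.Lib.Helper17.pow_q_pow_q hF]
      ring
    have h4 : (μ ^ q * μ - 1) * (y : Matrix (Fin a) (Fin a) F) b₀ c₀ = 0 := by
      linear_combination -h3
    rcases mul_eq_zero.1 h4 with h5 | h5
    · exact sub_eq_zero.1 h5
    · exact absurd h5 h0
  obtain ⟨ν, hν0, hν⟩ := Cfsg.Agent.Lib.Helper47.UC.tg2_h90 q hF μ hμ1
  have hν' : ν ^ q ≠ 0 := pow_ne_zero _ hν0
  refine ⟨ν ^ q • (y : Matrix (Fin a) (Fin a) F), l / (ν ^ q) ^ k, div_ne_zero hl (pow_ne_zero _ hν'), ?_, ?_, ?_⟩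
  · apply IsUnit.of_mul_eq_one ((ν ^ q)⁻¹ • ((y⁻¹ : GL (Fin a) F) : Matrix (Fin a) (Fin a) F))
    rw [smul_mul_smul_comm, mul_inv_cancel₀ hν', one_smul, ← Units.val_mul, mul_inv_cancel, Units.val_one]
  · ext b c
    simp only [Matrix.transpose_apply, Matrix.smul_apply, smul_eq_mul, Matrix.map_apply, mul_pow]
    rw [hent b c, Cfsg.Agent.Lib.Helper17.pow_q_pow_q hF, ← mul_assoc, hν]
  · rw [pt_const_smul, smul_smul, div_mul_cancel₀ _ (pow_ne_zero _ hν')]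

end Cfsg.Agent.Lib.Helper54.UT
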