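import Cfsg.Agent.Lib.Helper54.UT.Defs
import Cfsg.Agent.Lib.Helper47.UC.ENVAU

set_option autoImplicit false

namespace Cfsg.Agent.Lib.Helper54.UT

open Cfsg Cfsg.Geo Cfsg.Agent.Lib.Helper77.Asch Cfsg.Agent.Lib.Helper77.AschG Cfsg.Agent.Lib.Helper5.AschC
open scoped MatrixGroups Matrix

variable {n : ℕ} {F : Type*} [Field F]

/-- TAU. -/
theorem exists_tau [Fintype F] (q : ℕ) (hF : Fintype.card F = q ^ 2) {a : ℕ} (Q : Subgroup (GL (Fin n) F))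
    (hQ : Q ≤ similarityGroup (hermForm n F q))
    (φ : Matrix (Fin a) (Fin a) F →ₐ[F] Matrix (Fin n) (Fin n) F) (hφ : φ.range = spanAlg Q) :
    ∃ τ : Matrix (Fin a) (Fin a) F → Matrix (Fin a) (Fin a) F,
      ∀ x u v, hermForm n F q (φ x *ᵥ u) v = hermForm n F q u (φ (τ x) *ᵥ v) := by
  have hadj : IsAdjointClosedFor (hermForm n F q) (spanAlg Q) :=
    Cfsg.Agent.Lib.Helper47.UC.env_adj_U q hF Q hQ
  have key : ∀ x : Matrix (Fin a) (Fin a) F, ∃ x' : Matrix (Fin a) (Fin a) F,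
      ∀ u v, hermForm n F q (φ x *ᵥ u) v = hermForm n F q u (φ x' *ᵥ v) := by
    intro x
    have hx : φ x ∈ spanAlg Q := by
      rw [← hφ]
      exact ⟨x, rfl⟩
    obtain ⟨k', hk', hk⟩ := hadj (φ x) hx
    rw [← hφ] at hk'
    obtain ⟨x', rfl⟩ := hk'
    exact ⟨x', hk⟩
  choose τ hτ using key
  exact ⟨τ, hτ⟩

end Cfsg.Agent.Lib.Helper54.UT
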