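import Cfsg.Agent.Lib.Helper54.UT.Defs
import Cfsg.Agent.Lib.Helper77.AschG.WN0

set_option autoImplicit false

namespace Cfsg.Agent.Lib.Helper54.UT

open Cfsg Cfsg.Geo Cfsg.Agent.Lib.Helper77.Asch Cfsg.Agent.Lib.Helper77.AschG Cfsg.Agent.Lib.Helper5.AschC
open scoped MatrixGroups Matrix

variable {n : ℕ} {F : Type*} [Field F]

/-- WS: a matrix conjugating every slot algebra by the same map is a scalar times a constant pure tensor. -/
theorem const_slot {a k : ℕ} (hk : 0 < k) (G G' : Matrix (Fin k → Fin a) (Fin k → Fin a) F) (h1 : G * G' = 1)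
    (h2 : G' * G = 1) (β : Matrix (Fin a) (Fin a) F → Matrix (Fin a) (Fin a) F)
    (h : ∀ i z, G' * slot i z * G = slot i (β z)) :
    ∃ (y : GL (Fin a) F) (l : F), l ≠ 0 ∧ G = l • pt (fun _ : Fin k => (y : Matrix (Fin a) (Fin a) F)) := by
  rcases isEmpty_or_nonempty (Fin k → Fin a) with he | hne
  · refine ⟨1, 1, one_ne_zero, ?_⟩
    ext u
    exact isEmptyElim u
  obtain ⟨α, hα⟩ := wn0_alg G' G h2 h1 ⟨0, hk⟩ (fun x => ⟨β x, h _ x⟩)
  have hαβ : ∀ z, α z = β z := fun z => by
    apply slot_injective (F := F) (a := a) (k := k) ⟨0, hk⟩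
    rw [← hα, h]
  obtain ⟨w, hw⟩ := skolem_noether α
  set T : Matrix (Fin k → Fin a) (Fin k → Fin a) F :=
    pt (fun _ : Fin k => (w : Matrix (Fin a) (Fin a) F)) with hT
  set T' : Matrix (Fin k → Fin a) (Fin k → Fin a) F :=
    pt (fun _ : Fin k => ((w⁻¹ : GL (Fin a) F) : Matrix (Fin a) (Fin a) F)) with hT'
  have hTT' : T * T' = 1 := by
    rw [hT, hT', pt_mul]
    have : (fun _ : Fin k => (w : Matrix (Fin a) (Fin a) F) * ((w⁻¹ : GL (Fin a) F) : Matrix (Fin a) (Fin a) F))
        = fun _ => 1 := by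
      funext i
      rw [← Units.val_mul, mul_inv_cancel, Units.val_one]
    rw [this, pt_one]
  have hT'T : T' * T = 1 := by
    rw [hT, hT', pt_mul]
    have : (fun _ : Fin k => ((w⁻¹ : GL (Fin a) F) : Matrix (Fin a) (Fin a) F) * (w : Matrix (Fin a) (Fin a) F))
        = fun _ => 1 := by
      funext i
      rw [← Units.val_mul, inv_mul_cancel, Units.val_one]
    rw [this, pt_one]
  have htslot : ∀ i z, T * slot i z * T' = G' * slot i z * G := by
    intro i z
    rw [h, ← hαβ, hw]
    exact pt_conj_slot (fun _ : Fin k => (w : Matrix (Fin a) (Fin a) F))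
      (fun _ : Fin k => ((w⁻¹ : GL (Fin a) F) : Matrix (Fin a) (Fin a) F))
      (fun j => by rw [← Units.val_mul, mul_inv_cancel, Units.val_one]) i z
  have hcomm : ∀ i z, (G * T) * slot i z = slot i z * (G * T) := by
    intro i z
    have e := htslot i z
    calc G * T * slot i z = G * (T * slot i z * T') * T := by
          simp only [mul_assoc]; rw [hT'T, mul_one]
      _ = G * (G' * slot i z * G) * T := by rw [e]
      _ = (G * G') * slot i z * (G * T) := by simp only [mul_assoc]
      _ = slot i z * (G * T) := by rw [h1, one_mul]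
  obtain ⟨l, hl⟩ := scalar_of_comm_slots _ hcomm
  have hG : G = l • T' := by
    calc G = G * (T * T') := by rw [hTT', mul_one]
      _ = (G * T) * T' := by rw [mul_assoc]
      _ = l • T' := by rw [hl, Matrix.smul_mul, one_mul]
  refine ⟨w⁻¹, l, ?_, hG⟩
  rintro rfl
  rw [zero_smul] at hG
  rw [hG, zero_mul] at h1
  exact zero_ne_one h1

end Cfsg.Agent.Lib.Helper54.UT
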