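import Cfsg.Agent.Lib.Helper54.UT.Defs
import Cfsg.Agent.Lib.Helper54.UT.GI
import Cfsg.Agent.Lib.Helper54.UT.GA
import Cfsg.Agent.Lib.Helper54.UT.WS
import Cfsg.Agent.Lib.Helper54.UT.HS
import Cfsg.Agent.Lib.Helper77.AschG.PT
import Cfsg.Agent.Lib.Helper47.UC.TG3

set_option autoImplicit false

namespace Cfsg.Agent.Lib.Helper54.UT

open Cfsg Cfsg.Geo Cfsg.Agent.Lib.Helper77.Asch Cfsg.Agent.Lib.Helper77.AschG Cfsg.Agent.Lib.Helper5.AschC
open scoped MatrixGroups Matrix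

variable {n : ℕ} {F : Type*} [Field F]

theorem tp_slot_transpose {a k : ℕ} (i : Fin k) (x : Matrix (Fin a) (Fin a) F) :
    (slot (k := k) i x)ᵀ = slot i xᵀ := by
  ext u v
  simp only [Matrix.transpose_apply, slot_apply]
  by_cases h : ∀ j, j ≠ i → u j = v j
  · have h' : ∀ j, j ≠ i → v j = u j := fun j hj => (h j hj).symm
    rw [if_pos h, if_pos h']
  · have h' : ¬ ∀ j, j ≠ i → v j = u j := fun h' => h (fun j hj => (h' j hj).symm)
    rw [if_neg h, if_neg h']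

theorem tp_slot_map {a k : ℕ} (q : ℕ) (hq : q ≠ 0) (i : Fin k) (x : Matrix (Fin a) (Fin a) F) :
    (slot (k := k) i x).map (· ^ q) = slot i (x.map (· ^ q)) := by
  ext u v
  simp only [Matrix.map_apply, slot_apply]
  split_ifs
  · rfl
  · exact zero_pow hq

/-- TP (assembly). -/
theorem tensor_power_form [Fintype F] (q : ℕ) (hF : Fintype.card F = q ^ 2) {a k : ℕ} (hk : 0 < k) (ha : 0 < a)
    (e : Fin n ≃ (Fin k → Fin a)) (P : GL (Fin n) F) (τ : Matrix (Fin a) (Fin a) F → Matrix (Fin a) (Fin a) F)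
    (hτ : ∀ i x u v, hermForm n F q (tw e P (slot i x) *ᵥ u) v = hermForm n F q u (tw e P (slot i (τ x)) *ᵥ v)) :
    ∃ f₁ : (Fin a → F) → (Fin a → F) → F, IsUnitaryFormPow q f₁ ∧
      IsTensorPowerFormStructure (fun x : F => x ^ q) (hermForm n F q) f₁ e P := by
  classical
  have hq0 : q ≠ 0 := by
    have := Cfsg.Agent.Lib.Helper17.two_le_of_card_sq hF
    omega
  obtain ⟨Gu, hGu⟩ := gramI_isUnit q hF e P
  have h1 : gramI q e P * ((Gu⁻¹ : (Matrix (Fin k → Fin a) (Fin k → Fin a) F)ˣ) :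
      Matrix (Fin k → Fin a) (Fin k → Fin a) F) = 1 := by rw [← hGu]; exact Gu.mul_inv
  have h2 : ((Gu⁻¹ : (Matrix (Fin k → Fin a) (Fin k → Fin a) F)ˣ) :
      Matrix (Fin k → Fin a) (Fin k → Fin a) F) * gramI q e P = 1 := by rw [← hGu]; exact Gu.inv_mul
  have hβ : ∀ i z, ((Gu⁻¹ : (Matrix (Fin k → Fin a) (Fin k → Fin a) F)ˣ) :
      Matrix (Fin k → Fin a) (Fin k → Fin a) F) * slot i z * gramI q e P
        = slot i ((τ zᵀ).map (· ^ q)) := by
    intro i z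
    have h := gramI_adj q hF e P (slot i zᵀ) (slot i (τ zᵀ)) (hτ i zᵀ)
    rw [tp_slot_transpose, Matrix.transpose_transpose, tp_slot_map q hq0] at h
    rw [mul_assoc, h, ← mul_assoc, h2, one_mul]
  obtain ⟨y, l, hl, hGy⟩ := const_slot hk _ _ h1 h2 _ hβ
  have hh := gramI_herm q hF e P
  rw [hGy] at hh
  obtain ⟨J, c, hc, hJu, hJh, hJ⟩ := herm_scale_const q hF hk ha y l hl hh
  obtain ⟨hf1, hgm⟩ := Cfsg.Agent.Lib.Helper47.UC.formOfGram_unitary q hF J hJu hJh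
  refine ⟨formOfGram (fun a : F => a ^ q) J, hf1, c, hc, fun x y' => ?_⟩
  rw [gramI_apply q hF, hgm, hGy.trans hJ, Finset.mul_sum]
  refine Finset.sum_congr rfl fun u _ => ?_
  rw [Finset.mul_sum]
  refine Finset.sum_congr rfl fun v _ => ?_
  simp only [Matrix.smul_apply, pt, smul_eq_mul]
  ring

end Cfsg.Agent.Lib.Helper54.UT
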